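import Cfsg.Agent.L0.McL.Pres
import Cfsg.Agent.L0.McL.Cov0

/-! The covering group. -/

set_option autoImplicit false
set_option maxRecDepth 100000

namespace Cfsg.Agent.L0.McLPres

theorem lower {G : Type*} [Group G] [Finite G] {x : ℕ → G} (h : IsPres x 12 R) :
    LowerMult G (Multiplicative (ZMod 3)) :=
  lower_one h (McLCov0.rep (by decide +kernel))
      [(-2, 0), (1, 11), (2, 29), (-2, 30), (-3, 34), (2, 35)]
      (by decide +kernel) (by decide +kernel)

end Cfsg.Agent.L0.McLPres
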