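import Cfsg.Agent.L0.CosetChain

/-! Generated coset table certificate. -/

set_option autoImplicit false
set_option maxRecDepth 100000

namespace Cfsg.Agent.L0.McLPc5

noncomputable def t0 : BT := .leaf (nat_lit 0x459b2ad52a55a74abb000001a812142850a1428400)

noncomputable def tree : BT := t0

noncomputable def row : ℕ → ℕ := rowOf tree (nat_lit 3) (nat_lit 7) (nat_lit 94) (nat_lit 0x3fffffffffffffffffffffff)

noncomputable def cols : List Col := [⟨nat_lit 10, nat_lit 1, [([nat_lit 66, nat_lit 31, nat_lit 59], nat_lit 0)]⟩,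
  ⟨nat_lit 17, nat_lit 1, [([nat_lit 10], nat_lit 0)]⟩,
  ⟨nat_lit 24, nat_lit 1, [([nat_lit 31], nat_lit 0)]⟩,
  ⟨nat_lit 31, nat_lit 1, [([nat_lit 59, nat_lit 10, nat_lit 66], nat_lit 0)]⟩,
  ⟨nat_lit 38, nat_lit 1, [([nat_lit 10, nat_lit 59, nat_lit 52, nat_lit 66], nat_lit 0)]⟩,
  ⟨nat_lit 45, nat_lit 1, [([nat_lit 24, nat_lit 52, nat_lit 66, nat_lit 66, nat_lit 52], nat_lit 0)]⟩,
  ⟨nat_lit 52, nat_lit 1, [([nat_lit 66, nat_lit 38, nat_lit 10, nat_lit 59], nat_lit 0)]⟩,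
  ⟨nat_lit 59, nat_lit 0, [([nat_lit 66], nat_lit 0)]⟩,
  ⟨nat_lit 66, nat_lit 0, [([nat_lit 59], nat_lit 0), ([nat_lit 66, nat_lit 52, nat_lit 45, nat_lit 24, nat_lit 52], nat_lit 0)]⟩]

noncomputable def erots : List (List ℕ × ℕ) := []

noncomputable def gens : List ℕ := [nat_lit 10, nat_lit 17, nat_lit 24, nat_lit 31, nat_lit 38, nat_lit 45, nat_lit 52, nat_lit 59, nat_lit 66]

noncomputable def chk : ℕ → Bool := chkRow0 row (nat_lit 2) (nat_lit 0x3) (nat_lit 0x1c) (nat_lit 5) (nat_lit 0x3) (nat_lit 0) (nat_lit 0x3) (nat_lit 2) (nat_lit 0x7f) (nat_lit 0x200) [] cols gens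

theorem b0 : allR chk 1 0 = true := by decide +kernel

noncomputable def T : CT := ⟨row, nat_lit 2, nat_lit 2, nat_lit 0x3, nat_lit 0x1c, nat_lit 5, nat_lit 0x3, nat_lit 0, nat_lit 0x3, nat_lit 2, nat_lit 0x7f, nat_lit 0x200, nat_lit 94, nat_lit 94, nat_lit 0, nat_lit 6, [], cols, erots, gens⟩

theorem all : ∀ c < 2, chk c = true := fun c hc =>
  allR_glue (d := 1) (n := 1) (forall_lt_succ' forall_lt_zero' b0) c (lt_of_lt_of_le hc (by norm_num))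

/-- the relators used -/
def R : List (List ℕ) := [[nat_lit 0, nat_lit 1],
  [nat_lit 2, nat_lit 3],
  [nat_lit 7, nat_lit 8],
  [nat_lit 0, nat_lit 8, nat_lit 3, nat_lit 7],
  [nat_lit 0, nat_lit 7, nat_lit 6, nat_lit 8, nat_lit 4],
  [nat_lit 2, nat_lit 6, nat_lit 8, nat_lit 8, nat_lit 6, nat_lit 5]]

theorem cert : Cert T (R.map fun r => (r, 0)) ([0, 1, 2, 3, 4, 5, 6].map fun y => (y, 0)) 10 7 [0, 1, 2, 3, 4, 5, 6, 7, 8] :=
  ⟨by decide +kernel, ⟨[[(3, 0)], [(0, 1)], [(1, 0)], [(3, 2)], [(4, 4)], [(5, 5)], [(4, 2)], [(2, 0)], [(2, 1), (5, 2)]], [], by decide +kernel⟩, by decide +kernel, Or.inl ⟨rfl, all⟩⟩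

theorem bound {Γ : Type*} [Group Γ] {x : ℕ → Γ} (hR : ∀ r ∈ R, ev x r = 1) {n : ℕ}
    (h : CardLe x [0, 1, 2, 3, 4, 5, 6] n) : CardLe x [0, 1, 2, 3, 4, 5, 6, 7, 8] (2 * n) :=
  cert.cardLe rfl hR h

end Cfsg.Agent.L0.McLPc5
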